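import Cfsg.Agent.H93.FamilyCriterion

/-!
The climbing lemmas of `H93.FamilyClimb` and the criterion of `H93.FamilyCriterion` for an arbitrary notion
of a big subgroup in place of comparison of orders, and induction along stabilizers inside a normalizer.
-/

set_option autoImplicit false

namespace Cfsg.Agent.H44.BigClimb

open Cfsg Cfsg.FusionSystem Cfsg.Agent.H93

variable {Ω : Type*} [Group Ω] {S : Subgroup Ω} {F : FusionSystem S} {p : ℕ}
  {N N' Ns P R : Subgroup Ω} {Big : Subgroup Ω → Prop}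

/-- A property of subgroups invariant under conjugation in the system. -/
def ConjStable (F : FusionSystem S) (Big : Subgroup Ω → Prop) : Prop :=
  ∀ X Y, F.IsConj X Y → Big X → Big Y

/-- A property of subgroups inherited by the subgroups of `S` above one having it. -/
def MonoIn (S : Subgroup Ω) (Big : Subgroup Ω → Prop) : Prop :=
  ∀ X Y : Subgroup Ω, X ≤ Y → Y ≤ S → Big X → Big Y

/-- Big subgroups have fully automized receptive conjugates. -/
def SatBig (F : FusionSystem S) (p : ℕ) (Big : Subgroup Ω → Prop) : Prop :=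
  ∀ X : Subgroup Ω, X ≤ S → Big X → ∃ Y, F.IsConj X Y ∧ F.IsFullyAutomized p Y ∧ F.IsReceptive Y

variable [Finite S] [Fact p.Prime]

theorem reach_climb (hS : IsPGroup p S) (hP : F.IsFullyNormalized P) (hBc : ConjStable F Big)
    (hBm : MonoIn S Big) (hov : SatBig F p Big) :
    ∀ (n : ℕ) (N N' R : Subgroup Ω) (θ : Ω → Ω), Nat.card S - Nat.card N = n → Big N →
      R < N → N ≤ normalizerIn S R → Mor F N N' θ → N' ≤ normalizerIn S P → Mor F R P θ →
      Reach F R P := by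
  intro n
  induction n using Nat.strong_induction_on with
  | _ n ih =>
  intro N N' R θ hn hNbig hRN hN hθ hN' hθR
  rcases eq_or_lt_of_le hN with rfl | hlt
  · exact ⟨θ, N', hθ, hN', hθR⟩
  have hNS := hθ.le_left
  have hPR : F.IsConj P R := isConj_symm hθR.isConj
  have hcard : Nat.card P < Nat.card N :=
    (isConj_card_eq hPR).symm ▸ card_lt_card_of_lt hRN hNS
  have hN'lt : N' < normalizerIn S P := by
    refine lt_of_le_of_ne hN' fun e => ?_
    have h1 := card_lt_card_of_lt hlt (normalizerIn_le S R)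
    have h2 := hP.2 R hPR
    rw [hθ.card_eq, e] at h1
    omega
  obtain ⟨Ns, hNs, h₁, h₂⟩ := hov N hNS hNbig
  obtain ⟨a, Ma, ha, hMa, haN⟩ := exists_mor_normalizer hS h₁ h₂ hNs
  obtain ⟨b, Mb, hb, hMb, hbN⟩ :=
    exists_mor_normalizer hS h₁ h₂ (isConj_trans (isConj_symm hθ.isConj) hNs)
  have hPN' : P ≤ N' := by
    intro y hy
    obtain ⟨x, hx, rfl⟩ := hθR.surj hy
    exact hθ.map_mem (hRN.le hx)
  obtain ⟨R₁, hR₁, haR⟩ := haN.restrict hRN.le
  obtain ⟨P₁, hP₁, hbP⟩ := hbN.restrict hPN'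
  obtain ⟨P₂, d, -, hd, hdP, hprop⟩ := exists_sylowIn h₁ hP₁
  obtain ⟨ai, hai, hai1, -⟩ := haN.exists_inv
  have haiR : Mor F R₁ R ai := by
    refine hai.restrict_eq hR₁ (fun y hy => ?_) fun x hx => ⟨a x, haR.map_mem hx, hai1 x (hRN.le hx)⟩
    obtain ⟨x, hx, rfl⟩ := haR.surj hy
    rw [hai1 x (hRN.le hx)]; exact hx
  obtain ⟨f, M, hf, hM, hfR, -⟩ := push hS h₂ hprop ha hMa haN hRN.le hN haR
    (hd.comp (hbN.comp (hθ.comp hai))) (hdP.comp (hbP.comp (hθR.comp haiR)))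
  obtain ⟨g, M', hg, hM', hgP, -⟩ := push hS h₂ hprop hb hMb hbN hPN' hN' hbP hd hdP
  -- the new representative reaches `P`
  have hT : Reach F P₂ P := by
    obtain ⟨gi, hgi, hgi1, -⟩ := hg.exists_inv
    have hPX : P ≤ normalizerIn S N' ⊓ normalizerIn S P :=
      le_inf (hPN'.trans (le_normalizerIn hθ.le_right)) (le_normalizerIn hP.1)
    have hgiP : Mor F P₂ P gi := by
      refine hgi.restrict_eq ?_ (fun y hy => ?_) fun x hx => ⟨g x, hgP.map_mem hx, hgi1 x (hPX hx)⟩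
      · intro y hy
        obtain ⟨x, hx, rfl⟩ := hgP.surj hy
        exact hg.map_mem (hPX hx)
      · obtain ⟨x, hx, rfl⟩ := hgP.surj hy
        rw [hgi1 x (hPX hx)]; exact hx
    have hlt' := lt_inf_normalizerIn hS hN'lt
    have hsub : normalizerIn S N' ⊓ normalizerIn S P ≤ S := inf_le_left.trans (normalizerIn_le S N')
    have hM'S := hg.le_right
    have hc : Nat.card N < Nat.card M' := by
      rw [hθ.card_eq, ← hg.card_eq]
      exact card_lt_card_of_lt hlt' hsub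
    have := Subgroup.card_le_of_le hM'S
    refine ih _ ?_ M' _ P₂ gi rfl (hBc _ _ hg.isConj (hBm _ _ hlt'.le hsub (hBc _ _ hθ.isConj hNbig)))
      ?_ hM' hgi inf_le_right hgiP
    · omega
    · refine lt_of_le_of_ne ?_ ?_
      · intro y hy
        obtain ⟨x, hx, rfl⟩ := hgP.surj hy
        exact hg.map_mem (hPX hx)
      · intro e
        rw [← e, ← hgP.card_eq] at hc
        omega
  obtain ⟨c, Mc, hc, hMc, hcP⟩ := hT
  obtain ⟨Mf, hMf, hcM⟩ := hc.restrict hM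
  have hlt'' := lt_inf_normalizerIn hS hlt
  have hsub : normalizerIn S N ⊓ normalizerIn S R ≤ S := inf_le_left.trans (normalizerIn_le S N)
  have hc' := card_lt_card_of_lt hlt'' hsub
  have := Subgroup.card_le_of_le hsub
  refine ih _ ?_ _ Mf R (fun x => c (f x)) rfl (hBm _ _ hlt''.le hsub hNbig) (hRN.trans hlt'')
    inf_le_right (hcM.comp hf)
    (hMf.trans hMc) (hcP.comp hfR)
  omega

/-- A map defined on a group larger than `R` pulls back reachability. -/
theorem reach_of_step (hS : IsPGroup p S) (hP : F.IsFullyNormalized P) (hBc : ConjStable F Big)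
    (hBm : MonoIn S Big) (hov : SatBig F p Big)
    {R' : Subgroup Ω} {f : Ω → Ω} (hf : Mor F N N' f) (hRN : R < N) (hfR : Mor F R R' f)
    (hR' : Reach F R' P) (hbig : Big (N ⊓ Subgroup.normalizer (R : Set Ω))) : Reach F R P := by
  obtain ⟨a, M, ha, hM, haP⟩ := hR'
  have hNS := hf.le_left
  have := finite_of_le hNS
  have hlt := lt_inf_normalizer (isPGroup_of_le hS hNS) hRN
  set N₀ := N ⊓ Subgroup.normalizer (R : Set Ω) with hN₀
  obtain ⟨A, hA, hfN⟩ := hf.restrict (inf_le_left : N₀ ≤ N)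
  have hA2 : A ≤ normalizerIn S R' := by
    intro y hy
    obtain ⟨x, hx, rfl⟩ := hfN.surj hy
    exact hf.map_mem_normalizerIn hfR hRN.le hx.1 hx.2
  obtain ⟨B, hB, haA⟩ := ha.restrict hA2
  exact reach_climb hS hP hBc hBm hov _ N₀ B R (fun x => a (f x)) rfl hbig hlt
    (fun x hx => ⟨hNS hx.1, hx.2⟩) (haA.comp hfN) (hB.trans hM) (haP.comp hfR)


/-- A group is generated by a Sylow `p`-subgroup and the elements of order prime to `p`. -/
theorem sylow_sup_coprime {G : Type*} [Group G] [Finite G] (T : Sylow p G) :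
    (T : Subgroup G) ⊔ Subgroup.closure {g : G | (orderOf g).Coprime p} = ⊤ := by
  set K := Subgroup.closure {g : G | (orderOf g).Coprime p} with hK
  have : K.Normal := by
    refine ⟨fun n hn g => ?_⟩
    induction hn using Subgroup.closure_induction with
    | mem x hx =>
      refine Subgroup.subset_closure ?_
      show (orderOf (g * x * g⁻¹)).Coprime p
      rw [← MulAut.conj_apply, MulEquiv.orderOf_eq]
      exact hx
    | one => simp
    | mul x y _ _ hx hy => simpa [mul_assoc] using K.mul_mem hx hy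
    | inv x _ hx => simpa [mul_assoc] using K.inv_mem hx
  have hp : IsPGroup p (G ⧸ K) := by
    intro x
    obtain ⟨g, rfl⟩ := QuotientGroup.mk'_surjective K x
    have h0 := (isOfFinOrder_of_finite g).orderOf_pos
    obtain ⟨k, m, hm, he⟩ := Nat.exists_eq_pow_mul_and_not_dvd h0.ne' p (Fact.out : p.Prime).ne_one
    refine ⟨k, ?_⟩
    rw [← map_pow, QuotientGroup.mk'_apply, QuotientGroup.eq_one_iff]
    refine Subgroup.subset_closure ?_
    show (orderOf (g ^ p ^ k)).Coprime p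
    rw [orderOf_pow, he, Nat.gcd_eq_right (Dvd.intro _ rfl),
      Nat.mul_div_cancel_left _ (pow_pos (Fact.out : p.Prime).pos k)]
    exact ((Fact.out : p.Prime).coprime_iff_not_dvd.2 hm).symm
  let T' := T.mapSurjective (QuotientGroup.mk'_surjective K)
  have hT' : (T' : Subgroup (G ⧸ K)) = ⊤ :=
    (T'.is_maximal' (hp.to_subgroup ⊤) le_top).symm
  refine (Subgroup.eq_top_iff' _).2 fun g => ?_
  obtain ⟨t, ht, he⟩ : QuotientGroup.mk' K g ∈ (T : Subgroup G).map (QuotientGroup.mk' K) := by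
    rw [← Sylow.coe_mapSurjective (QuotientGroup.mk'_surjective K) T]
    exact hT' ▸ Subgroup.mem_top _
  have h2 : t⁻¹ * g ∈ K := QuotientGroup.eq.1 he
  have h3 := Subgroup.mul_mem_sup ht h2
  simpa using h3

/-- Induction along the maps between big subgroups of `N_S(P)` which contain and stabilize a fully
normalized `P` reached by all its conjugates. -/
theorem stab_induction (hS : IsPGroup p S) (hP : F.IsFullyNormalized P) (hBc : ConjStable F Big)
    (hBm : MonoIn S Big) (hov : SatBig F p Big) (hreach : ∀ R, F.IsConj P R → Reach F R P)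
    {Φ : Subgroup Ω → Subgroup Ω → (Ω → Ω) → Prop}
    (congr : ∀ (N N2 : Subgroup Ω) (f f' : Ω → Ω), (∀ x ∈ N, f x = f' x) → Φ N N2 f → Φ N N2 f')
    (comp : ∀ (N N2 N3 : Subgroup Ω) (f g : Ω → Ω), Big N → P ≤ N → N ≤ normalizerIn S P →
      N2 ≤ normalizerIn S P → N3 ≤ normalizerIn S P → Mor F N N2 f → Mor F P P f → Mor F N2 N3 g →
      Mor F P P g → Φ N N2 f → Φ N2 N3 g → Φ N N3 (fun x => g (f x)))
    (inv : ∀ (N N2 : Subgroup Ω) (f f' : Ω → Ω), Big N → P ≤ N → N ≤ normalizerIn S P →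
      N2 ≤ normalizerIn S P → Mor F N N2 f → Mor F P P f → Mor F N2 N f' → Mor F P P f' →
      (∀ x ∈ N, f' (f x) = x) → Φ N N2 f → Φ N2 N f')
    (res : ∀ (X X2 N N2 : Subgroup Ω) (f : Ω → Ω), Big N → P ≤ N → N ≤ X → X ≤ normalizerIn S P →
      X2 ≤ normalizerIn S P → Mor F X X2 f → Mor F N N2 f → Mor F P P f → Φ X X2 f → Φ N N2 f)
    (conj : ∀ (N N2 : Subgroup Ω) (s : Ω), Big N → P ≤ N → N ≤ normalizerIn S P →
      N2 ≤ normalizerIn S P → s ∈ normalizerIn S P → Mor F N N2 (fun x => s * x * s⁻¹) →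
      Mor F P P (fun x => s * x * s⁻¹) → Φ N N2 (fun x => s * x * s⁻¹))
    (aut : ∀ N : Subgroup Ω, Big N → P ≤ N → N ≤ normalizerIn S P → ∀ α ∈ F.autGroup N,
      (orderOf α).Coprime p → ∀ f : Ω → Ω, (∀ x : N, f x = α x) → Mor F N N f → Mor F P P f →
      Φ N N f) :
    ∀ (N N2 : Subgroup Ω) (θ : Ω → Ω), Big N → P ≤ N → N ≤ normalizerIn S P → N2 ≤ normalizerIn S P → Mor F N N2 θ →
      Mor F P P θ → Φ N N2 θ := by
  suffices h : ∀ (n : ℕ) (N N2 : Subgroup Ω) (θ : Ω → Ω), Nat.card S - Nat.card N = n → Big N → P ≤ N →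
      N ≤ normalizerIn S P → N2 ≤ normalizerIn S P → Mor F N N2 θ → Mor F P P θ → Φ N N2 θ from
    fun N N2 θ => h _ N N2 θ rfl
  intro n
  induction n using Nat.strong_induction_on with
  | _ n ih =>
  intro N N2 θ hn hNbig hPN hN hN2 hθ hθP
  have hNS := hθ.le_left
  have hN2S := hθ.le_right
  have hPS := hP.1
  have hPN2 : P ≤ N2 := by
    intro y hy
    obtain ⟨x, hx, rfl⟩ := hθP.surj hy
    exact hθ.map_mem (hPN hx)
  have hN2big : Big N2 := hBc _ _ hθ.isConj hNbig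
  obtain ⟨Ns, hNs, h₁, h₂⟩ := hov N hNS hNbig
  have hNsS := h₁.1
  obtain ⟨a, Ma, ha, hMa, haN⟩ := exists_mor_normalizer hS h₁ h₂ hNs
  obtain ⟨b, Mb, hb, hMb, hbN⟩ :=
    exists_mor_normalizer hS h₁ h₂ (isConj_trans (isConj_symm hθ.isConj) hNs)
  obtain ⟨R₁, hR₁, haP⟩ := haN.restrict hPN
  obtain ⟨P₁, hP₁, hbP⟩ := hbN.restrict hPN2
  obtain ⟨P₂, d, hP₂, hd, hdP, hprop⟩ := exists_sylowIn h₁ hP₁
  obtain ⟨ai, hai, hai1, -⟩ := haN.exists_inv
  have haiP : Mor F R₁ P ai := by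
    refine hai.restrict_eq hR₁ (fun y hy => ?_) fun x hx => ⟨a x, haP.map_mem hx, hai1 x (hPN hx)⟩
    obtain ⟨x, hx, rfl⟩ := haP.surj hy
    rw [hai1 x (hPN hx)]; exact hx
  obtain ⟨f, M, hf, hM, hfP, hfN⟩ := push hS h₂ hprop ha hMa haN hPN hN haP
    (hd.comp (hbN.comp (hθ.comp hai))) (hdP.comp (hbP.comp (hθP.comp haiP)))
  obtain ⟨g, M', hg, hM', hgP, hgN⟩ := push hS h₂ hprop hb hMb hbN hPN2 hN2 hbP hd hdP
  obtain ⟨c, Mc, hc, hMc, hcP⟩ := hreach P₂ hfP.isConj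
  have hNsN : Ns ≤ normalizerIn S P₂ := by
    intro y hy
    obtain ⟨x, hx, rfl⟩ := hfN.surj hy
    exact hM (hf.map_mem (show x ∈ _ from ⟨le_normalizerIn hNS hx, hN hx⟩))
  obtain ⟨Nh, hNh, hcN⟩ := hc.restrict hNsN
  have hNhN : Nh ≤ normalizerIn S P := hNh.trans hMc
  have hP₂N : P₂ ≤ normalizerIn S P₂ := hP₂.trans hNsN
  have hPNh : P ≤ Nh := by
    intro y hy
    obtain ⟨x, hx, rfl⟩ := hcP.surj hy
    exact hcN.map_mem (hP₂ hx)
  have hNhbig : Big Nh := hBc _ _ (isConj_trans hNs hcN.isConj) hNbig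
  obtain ⟨ci, hci, hci1, hci2⟩ := hcN.exists_inv
  have hciP : Mor F P P₂ ci := by
    refine hci.restrict_eq hPNh (fun y hy => ?_)
      fun x hx => ⟨c x, hcP.map_mem hx, hci1 x (hP₂ hx)⟩
    obtain ⟨x, hx, rfl⟩ := hcP.surj hy
    rw [hci1 x (hP₂ hx)]; exact hx
  -- every automorphism of `Ns` stabilizing `P₂` gives a good map of `Nh`
  have := finite_stabAut (F := F) (P := P₂) hNsS
  let G := stabAut F Ns P₂
  have hmor : ∀ β : G, ∃ γ, Mor F Ns Ns γ ∧ (∀ x : Ns, γ x = (β : MulAut Ns) x) ∧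
      Mor F P₂ P₂ γ := by
    intro β
    obtain ⟨γ, hγ, hγe⟩ := exists_mor_of_aut hNsS β.2.1
    refine ⟨γ, hγ, hγe, hγ.restrict_eq hP₂ (fun x hx => ?_) fun y hy => ?_⟩
    · rw [show γ x = _ from hγe ⟨x, hP₂ hx⟩]
      exact (β.2.2 ⟨x, hP₂ hx⟩).2 hx
    · refine ⟨(((β⁻¹ : G) : MulAut Ns) ⟨y, hP₂ hy⟩ : Ns), ((β⁻¹).2.2 ⟨y, hP₂ hy⟩).2 hy, ?_⟩
      rw [hγe]
      simp
  have hMid : ∀ β : G, ∀ φ, (∀ x : Ns, φ (c x) = c ((β : MulAut Ns) x : Ns)) →
      Φ Nh Nh φ := by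
    obtain ⟨T, hT⟩ := id hprop
    intro β
    have hβ : β ∈ (T : Subgroup G) ⊔ Subgroup.closure {g : G | (orderOf g).Coprime p} := by
      rw [sylow_sup_coprime]; exact Subgroup.mem_top _
    rw [← Subgroup.closure_eq (T : Subgroup G), ← Subgroup.closure_union] at hβ
    have hval : ∀ (β : G) φ, (∀ x : Ns, φ (c x) = c ((β : MulAut Ns) x : Ns)) →
        Mor F Nh Nh φ ∧ Mor F P P φ := by
      intro β φ hφ
      obtain ⟨γ, hγ, hγe, hγP⟩ := hmor β
      have e : ∀ y ∈ Nh, c (γ (ci y)) = φ y := by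
        intro y hy
        obtain ⟨x, hx, rfl⟩ := hcN.surj hy
        rw [hci1 x hx, show γ x = _ from hγe ⟨x, hx⟩]
        exact (hφ ⟨x, hx⟩).symm
      exact ⟨(hcN.comp (hγ.comp hci)).congr e,
        (hcP.comp (hγP.comp hciP)).congr fun y hy => e y (hPNh hy)⟩
    induction hβ using Subgroup.closure_induction with
    | mem β hβ =>
      intro φ hφ
      obtain ⟨h1, h2⟩ := hval β φ hφ
      rcases hβ with hβ | hβ
      · obtain ⟨s, hs, hse⟩ := mem_autInducedBy.1 (hT β hβ)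
        have hsN : s ∈ normalizerIn S Ns := ⟨hs, mem_normalizer_of_conj_eq hse⟩
        have hsP : s ∈ normalizerIn S P₂ := by
          refine ⟨hs, Subgroup.mem_normalizer_iff.2 fun y => ?_⟩
          constructor
          · intro hy
            rw [← hse ⟨y, hP₂ hy⟩]
            exact (β.2.2 ⟨y, hP₂ hy⟩).2 hy
          · intro hy
            have hyN : y ∈ Ns := (Subgroup.mem_normalizer_iff.1 hsN.2 y).2 (hP₂ hy)
            exact (β.2.2 ⟨y, hyN⟩).1 (by rw [hse]; exact hy)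
        have hcs : c s ∈ normalizerIn S P := hMc (hc.map_mem hsP)
        have e : ∀ y ∈ Nh, c s * y * (c s)⁻¹ = φ y := by
          intro y hy
          obtain ⟨x, hx, rfl⟩ := hcN.surj hy
          rw [← hc.map_conj hsP (hNsN hx), ← hse ⟨x, hx⟩]
          exact (hφ ⟨x, hx⟩).symm
        exact congr _ _ _ φ e (conj Nh Nh (c s) hNhbig hPNh hNhN hNhN hcs
          (h1.congr fun y hy => (e y hy).symm) (h2.congr fun y hy => (e y (hPNh hy)).symm))
      · obtain ⟨α, hα, hαe⟩ := h1.exists_aut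
        refine aut Nh hNhbig hPNh hNhN α hα ?_ φ (fun x => (hαe x).symm) h1 h2
        have hord : orderOf α ∣ orderOf β := by
          rw [orderOf_dvd_iff_pow_eq_one]
          have key : ∀ (k : ℕ) (x : Ns), ((α ^ k) ⟨c x, hcN.map_mem x.2⟩ : Nh).1
              = c ((((β ^ k : G) : MulAut Ns) x : Ns) : Ω) := by
            intro k
            induction k with
            | zero => intro x; rfl
            | succ k ihk =>
              intro x
              rw [pow_succ α, pow_succ β, Subgroup.coe_mul, MulAut.mul_apply, MulAut.mul_apply]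
              have e1 : α ⟨c x, hcN.map_mem x.2⟩ =
                  ⟨c ((β : MulAut Ns) x : Ns), hcN.map_mem ((β : MulAut Ns) x).2⟩ :=
                Subtype.ext ((hαe _).trans (hφ x))
              rw [e1]
              exact ihk _
          refine MulEquiv.ext fun y => Subtype.ext ?_
          obtain ⟨x, hx, hxy⟩ := hcN.surj y.2
          have h3 := key (orderOf β) ⟨x, hx⟩
          rw [pow_orderOf_eq_one] at h3
          have e2 : y = ⟨c x, hcN.map_mem hx⟩ := Subtype.ext hxy.symm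
          rw [e2, h3]
          rfl
        exact Nat.Coprime.coprime_dvd_left hord hβ
    | one =>
      intro φ hφ
      obtain ⟨h1, h2⟩ := hval 1 φ hφ
      have e : ∀ y ∈ Nh, (1 : Ω) * y * (1 : Ω)⁻¹ = φ y := by
        intro y hy
        obtain ⟨x, hx, rfl⟩ := hcN.surj hy
        rw [hφ ⟨x, hx⟩]
        simp
      exact congr _ _ _ φ e (conj Nh Nh 1 hNhbig hPNh hNhN hNhN (Subgroup.one_mem _)
        (h1.congr fun y hy => (e y hy).symm) (h2.congr fun y hy => (e y (hPNh hy)).symm))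
    | mul β₁ β₂ _ _ ih₁ ih₂ =>
      intro φ hφ
      obtain ⟨γ₁, hγ₁, hγ₁e, -⟩ := hmor β₁
      obtain ⟨γ₂, hγ₂, hγ₂e, -⟩ := hmor β₂
      have e₁ : ∀ x : Ns, c (γ₁ (ci (c x))) = c ((β₁ : MulAut Ns) x : Ns) := fun x => by
        rw [hci1 x x.2, hγ₁e]
      have e₂ : ∀ x : Ns, c (γ₂ (ci (c x))) = c ((β₂ : MulAut Ns) x : Ns) := fun x => by
        rw [hci1 x x.2, hγ₂e]
      refine congr _ _ _ φ ?_ (comp Nh Nh Nh _ _ hNhbig hPNh hNhN hNhN hNhN
        (hval β₂ (fun y => c (γ₂ (ci y))) e₂).1 (hval β₂ (fun y => c (γ₂ (ci y))) e₂).2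
        (hval β₁ (fun y => c (γ₁ (ci y))) e₁).1 (hval β₁ (fun y => c (γ₁ (ci y))) e₁).2
        (ih₂ (fun y => c (γ₂ (ci y))) e₂) (ih₁ (fun y => c (γ₁ (ci y))) e₁))
      intro y hy
      obtain ⟨x, hx, rfl⟩ := hcN.surj hy
      rw [hφ ⟨x, hx⟩]
      show c (γ₁ (ci (c (γ₂ (ci (c x)))))) = _
      rw [e₂ ⟨x, hx⟩, e₁]
      rfl
    | inv β₀ _ ih₀ =>
      intro φ hφ
      obtain ⟨γ, hγ, hγe, -⟩ := hmor β₀
      have e : ∀ x : Ns, c (γ (ci (c x))) = c ((β₀ : MulAut Ns) x : Ns) := fun x => by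
        rw [hci1 x x.2, hγe]
      refine inv Nh Nh _ φ hNhbig hPNh hNhN hNhN (hval β₀ (fun y => c (γ (ci y))) e).1
        (hval β₀ (fun y => c (γ (ci y))) e).2
        (hval _ φ hφ).1 (hval _ φ hφ).2 (fun y hy => ?_) (ih₀ (fun y => c (γ (ci y))) e)
      obtain ⟨x, hx, rfl⟩ := hcN.surj hy
      rw [e ⟨x, hx⟩, hφ]
      simp
  set X := normalizerIn S N ⊓ normalizerIn S P with hXdef
  set X' := normalizerIn S N2 ⊓ normalizerIn S P with hX'def
  rcases eq_or_lt_of_le hN with hNeq | hlt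
  · -- `N = N_S(P)`
    subst hNeq
    have h0 := finite_of_le (normalizerIn_le S P)
    obtain rfl : N2 = normalizerIn S P := Subgroup.eq_of_le_of_card_ge hN2 hθ.card_eq.le
    obtain rfl : Nh = normalizerIn S P := Subgroup.eq_of_le_of_card_ge hNhN (by
      rw [← hcN.card_eq, ← hfN.card_eq])
    obtain ⟨α, hα, hαe⟩ := (hci.comp (hθ.comp hcN)).exists_aut
    have hP2 : Mor F P₂ P₂ (fun x => ci (θ (c x))) := hciP.comp (hθP.comp hcP)
    let β : G := ⟨α, hα, fun x => by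
      rw [hαe]; exact (hci.comp (hθ.comp hcN)).mem_iff hP2 hP₂ x.2⟩
    refine hMid β θ fun x => ?_
    show θ (c x) = c (α x : Ns)
    rw [hαe]
    exact (hci2 _ (hθ.map_mem (hcN.map_mem x.2))).symm
  have hXS : X ≤ S := inf_le_left.trans (normalizerIn_le S N)
  have hX'S : X' ≤ S := inf_le_left.trans (normalizerIn_le S N2)
  have hNX : N < X := lt_inf_normalizerIn hS hlt
  have hN2lt : N2 < normalizerIn S P := by
    refine lt_of_le_of_ne hN2 fun e => ?_
    have h3 := card_lt_card_of_lt hlt (normalizerIn_le S P)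
    rw [hθ.card_eq, e] at h3
    omega
  have hNX' : N2 < X' := lt_inf_normalizerIn hS hN2lt
  have hA : Φ N Nh (fun x => c (f x)) := by
    obtain ⟨A, hA, hcA⟩ := hc.restrict hM
    have := Subgroup.card_le_of_le hXS
    have := card_lt_card_of_lt hNX hXS
    refine res X A N Nh _ hNbig hPN hNX.le inf_le_right (hA.trans hMc) (hcA.comp hf)
      (hcN.comp hfN) (hcP.comp hfP) ?_
    exact ih _ (by omega) X A _ rfl (hBm _ _ hNX.le hXS hNbig) (hPN.trans hNX.le) inf_le_right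
      (hA.trans hMc) (hcA.comp hf) (hcP.comp hfP)
  have hB : Φ N2 Nh (fun x => c (g x)) := by
    obtain ⟨A, hA, hcA⟩ := hc.restrict hM'
    have := Subgroup.card_le_of_le hX'S
    have := card_lt_card_of_lt hNX' hX'S
    rw [← hθ.card_eq] at this
    refine res X' A N2 Nh _ hN2big hPN2 hNX'.le inf_le_right (hA.trans hMc) (hcA.comp hg)
      (hcN.comp hgN) (hcP.comp hgP) ?_
    exact ih _ (by omega) X' A _ rfl (hBm _ _ hNX'.le hX'S hN2big) (hPN2.trans hNX'.le) inf_le_right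
      (hA.trans hMc) (hcA.comp hg) (hcP.comp hgP)
  obtain ⟨fi, hfi, hfi1, -⟩ := hfN.exists_inv
  have hfiP : Mor F P₂ P fi := by
    refine hfi.restrict_eq hP₂ (fun y hy => ?_) fun x hx => ⟨f x, hfP.map_mem hx, hfi1 x (hPN hx)⟩
    obtain ⟨x, hx, rfl⟩ := hfP.surj hy
    rw [hfi1 x (hPN hx)]; exact hx
  have hγ : Mor F Ns Ns (fun y => g (θ (fi y))) := hgN.comp (hθ.comp hfi)
  have hγP : Mor F P₂ P₂ (fun y => g (θ (fi y))) := hgP.comp (hθP.comp hfiP)
  obtain ⟨α, hα, hαe⟩ := hγ.exists_aut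
  let β : G := ⟨α, hα, fun x => by rw [hαe]; exact hγ.mem_iff hγP hP₂ x.2⟩
  have hm : Φ Nh Nh (fun y => c (g (θ (fi (ci y))))) := hMid β _ fun x => by
    rw [hci1 x x.2]
    show c (g (θ (fi x))) = c (α x : Ns)
    rw [hαe]
  obtain ⟨j, hj, hj1, -⟩ := (hcN.comp hgN).exists_inv
  have hjP : Mor F P P j := by
    refine hj.restrict_eq hPNh (fun y hy => ?_)
      fun x hx => ⟨c (g x), (hcP.comp hgP).map_mem hx, hj1 x (hPN2 hx)⟩
    obtain ⟨x, hx, rfl⟩ := (hcP.comp hgP).surj hy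
    rw [hj1 x (hPN2 hx)]; exact hx
  have hmMor : Mor F Nh Nh (fun y => c (g (θ (fi (ci y))))) := hcN.comp (hγ.comp hci)
  have hmP : Mor F P P (fun y => c (g (θ (fi (ci y))))) := hcP.comp (hγP.comp hciP)
  have hBi : Φ Nh N2 j := inv N2 Nh _ j hN2big hPN2 hN2 hNhN (hcN.comp hgN) (hcP.comp hgP) hj hjP hj1 hB
  refine congr N N2 _ θ ?_ (comp N Nh N2 _ _ hNbig hPN hN hNhN hN2 (hcN.comp hfN) (hcP.comp hfP)
    (hj.comp hmMor) (hjP.comp hmP) hA
    (comp Nh Nh N2 _ _ hNhbig hPNh hNhN hNhN hN2 hmMor hmP hj hjP hm hBi))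
  intro x hx
  show j (c (g (θ (fi (ci (c (f x))))))) = θ x
  rw [hci1 _ (hfN.map_mem hx), hfi1 x hx, hj1 _ (hθ.map_mem hx)]

variable {ℋ : Set (Subgroup Ω)}

/-- `H93.extK_of_extends` with saturation assumed only strictly above `P`. -/
theorem extK_of_extends_of_gt (hS : IsPGroup p S) (hP : P ≤ S)
    (hov : ∀ X : Subgroup Ω, P < X → X ≤ S →
      ∃ Y, F.IsConj X Y ∧ F.IsFullyAutomized p Y ∧ F.IsReceptive Y)
    (hreach : ∀ R, F.IsConj P R → Reach F R P) :
    ∀ (n : ℕ) (N N' : Subgroup Ω) (θ : Ω → Ω), Nat.card S - Nat.card N = n →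
      P < N → N ≤ normalizerIn S P → Mor F N N' θ → N' ≤ normalizerIn S P → Mor F P P θ →
      ExtK F p P θ := by
  intro n
  induction n using Nat.strong_induction_on with
  | _ n ih =>
  intro N N' θ hn hPN hN hθ hN' hθP
  set K := opKer F p P with hK
  by_cases hKN : K ≤ N
  · obtain ⟨K₁, -, hθK⟩ := hθ.restrict hKN
    have hle : K₁ ≤ K := by
      intro y hy
      obtain ⟨x, hx, rfl⟩ := hθK.surj hy
      exact mem_opKer.2 (OpMem.map hθ hθP hPN.le (hKN hx) (mem_opKer.1 hx))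
    have := finite_of_le (opKer_le (F := F) (p := p) P)
    obtain rfl : K₁ = K := Subgroup.eq_of_le_of_card_ge hle hθK.card_eq.le
    exact ⟨θ, hθK, fun x _ => rfl⟩
  have hNS := hθ.le_left
  have hN'S := hθ.le_right
  have hlt : N < normalizerIn S P :=
    lt_of_le_of_ne hN fun e => hKN (e ▸ opKer_le_normalizerIn)
  have hPN' : P ≤ N' := by
    intro y hy
    obtain ⟨x, hx, rfl⟩ := hθP.surj hy
    exact hθ.map_mem (hPN.le hx)
  have hcN : Nat.card P < Nat.card N := card_lt_card_of_lt hPN hNS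
  obtain ⟨Ns, hNs, h₁, h₂⟩ := hov N hPN hNS
  obtain ⟨a, Ma, ha, hMa, haN⟩ := exists_mor_normalizer hS h₁ h₂ hNs
  obtain ⟨b, Mb, hb, hMb, hbN⟩ :=
    exists_mor_normalizer hS h₁ h₂ (isConj_trans (isConj_symm hθ.isConj) hNs)
  obtain ⟨R₁, hR₁, haP⟩ := haN.restrict hPN.le
  obtain ⟨P₁, hP₁, hbP⟩ := hbN.restrict hPN'
  obtain ⟨P₂, d, hP₂, hd, hdP, hprop⟩ := exists_sylowIn h₁ hP₁
  obtain ⟨ai, hai, hai1, -⟩ := haN.exists_inv
  have haiP : Mor F R₁ P ai := by
    refine hai.restrict_eq hR₁ (fun y hy => ?_) fun x hx => ⟨a x, haP.map_mem hx, hai1 x (hPN.le hx)⟩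
    obtain ⟨x, hx, rfl⟩ := haP.surj hy
    rw [hai1 x (hPN.le hx)]; exact hx
  obtain ⟨f, M, hf, hM, hfP, hfN⟩ := push hS h₂ hprop ha hMa haN hPN.le hN haP
    (hd.comp (hbN.comp (hθ.comp hai))) (hdP.comp (hbP.comp (hθP.comp haiP)))
  obtain ⟨g, M', hg, hM', hgP, hgN⟩ := push hS h₂ hprop hb hMb hbN hPN' hN' hbP hd hdP
  obtain ⟨c, Mc, hc, hMc, hcP⟩ := hreach P₂ hfP.isConj
  set X := normalizerIn S N ⊓ normalizerIn S P with hXdef
  set X' := normalizerIn S N' ⊓ normalizerIn S P with hX'def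
  have hXS : X ≤ S := inf_le_left.trans (normalizerIn_le S N)
  have hX'S : X' ≤ S := inf_le_left.trans (normalizerIn_le S N')
  have hNX : N < X := lt_inf_normalizerIn hS hlt
  have hN'lt : N' < normalizerIn S P := by
    refine lt_of_le_of_ne hN' fun e => ?_
    have h1 := card_lt_card_of_lt hlt (normalizerIn_le S P)
    rw [hθ.card_eq, e] at h1
    omega
  have hNX' : N' < X' := lt_inf_normalizerIn hS hN'lt
  -- the two outer automorphisms
  have hA : ExtK F p P (fun x => c (f x)) := by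
    obtain ⟨A, hA, hcA⟩ := hc.restrict hM
    have := Subgroup.card_le_of_le hXS
    have := card_lt_card_of_lt hNX hXS
    refine ih _ ?_ X A _ rfl (hPN.trans hNX) inf_le_right (hcA.comp hf) (hA.trans hMc) (hcP.comp hfP)
    omega
  have hB : ExtK F p P (fun x => c (g x)) := by
    obtain ⟨A, hA, hcA⟩ := hc.restrict hM'
    have := Subgroup.card_le_of_le hX'S
    have := card_lt_card_of_lt hNX' hX'S
    rw [← hθ.card_eq] at this
    refine ih _ ?_ X' A _ rfl ?_ inf_le_right (hcA.comp hg) (hA.trans hMc) (hcP.comp hgP)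
    · omega
    · exact lt_of_le_of_ne (hPN'.trans hNX'.le) fun e => by rw [← e] at this; omega
  -- the middle automorphism of `Ns`
  obtain ⟨fi, hfi, hfi1, -⟩ := hfN.exists_inv
  have hPX : P ≤ X := hPN.le.trans hNX.le
  have hfiP : Mor F P₂ P fi := by
    refine hfi.restrict_eq hP₂ (fun y hy => ?_)
      fun x hx => ⟨f x, hfP.map_mem hx, hfi1 x (hPN.le hx)⟩
    obtain ⟨x, hx, rfl⟩ := hfP.surj hy
    rw [hfi1 x (hPN.le hx)]; exact hx
  have hγ : Mor F Ns Ns (fun y => g (θ (fi y))) := hgN.comp (hθ.comp hfi)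
  have hγP : Mor F P₂ P₂ (fun y => g (θ (fi y))) := hgP.comp (hθP.comp hfiP)
  have hNsS := h₁.1
  have hNsN : Ns ≤ normalizerIn S P₂ := by
    intro y hy
    obtain ⟨x, hx, rfl⟩ := hfN.surj hy
    exact hM (hf.map_mem (hNX.le hx))
  have := finite_stabAut (F := F) (P := P₂) hNsS
  obtain ⟨α, hα, hαe⟩ := hγ.exists_aut
  let G := stabAut F Ns P₂
  let β : G := ⟨α, hα, fun x => by rw [hαe]; exact hγ.mem_iff hγP hP₂ x.2⟩
  let L : Subgroup G := (opAut F p P₂).comap (stabRes F hP₂)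
  have : L.Normal := ⟨fun l hl h => by
    show stabRes F hP₂ (h * l * h⁻¹) ∈ opAut F p P₂
    rw [_root_.map_mul, _root_.map_mul, _root_.map_inv]
    exact conj_mem_opAut hl (stabRes_mem hNsS hP₂ h)⟩
  have hLp : IsPGroup p (L.map (stabRes F hP₂)) :=
    (isPGroup_opAut (hP₂.trans hNsS)).to_le (Subgroup.map_comap_le _ _)
  obtain ⟨T, hT⟩ := id hprop
  obtain ⟨n', hn', hne⟩ := exists_normalizer_same_image (stabRes F hP₂) L hLp T β
  have hTmax : (autInducedBy S Ns).subgroupOf G ≤ (T : Subgroup G) := by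
    have hle : (T : Subgroup G) ≤ (autInducedBy S Ns).subgroupOf G :=
      fun x hx => Subgroup.mem_subgroupOf.2 (hT x hx)
    exact (T.is_maximal' ((isPGroup_autInducedBy hS Ns).comap_of_injective _
      (Subgroup.subtype_injective _)) hle).le
  obtain ⟨dn, hdn, hdne⟩ := exists_mor_of_aut hNsS n'.2.1
  have hdnP : ∀ y ∈ P₂, dn y = g (θ (fi y)) := by
    intro y hy
    rw [show dn y = _ from hdne ⟨y, hP₂ hy⟩]
    exact (congrArg (fun e : MulAut P₂ => ((e ⟨y, hy⟩ : P₂) : Ω)) hne).trans (hαe ⟨y, hP₂ hy⟩)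
  set M₀ := normalizerIn S Ns ⊓ opKer F p P₂ with hM₀
  obtain ⟨η, E, hη, hηe, hηN⟩ := hdn.extend (M := M₀) h₂ fun m hm => by
    refine ⟨hm.1, ?_⟩
    have hmn := opKer_le_normalizerIn hm.2
    let e : G := ⟨conjAut S Ns ⟨m, hm.1⟩, conjAut_mem_stabAut hNsS hm.1 hmn.2⟩
    have heA : (e : MulAut Ns) ∈ autInducedBy S Ns := autInducedBy_eq_range S Ns ▸ ⟨_, rfl⟩
    have heL : e ∈ L := by
      obtain ⟨-, u, hu, hue⟩ := mem_opKer.1 hm.2
      show stabRes F hP₂ e ∈ opAut F p P₂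
      have : stabRes F hP₂ e = u := MulEquiv.ext fun x => Subtype.ext (hue x).symm
      rwa [this]
    have := (Subgroup.mem_normalizer_iff.1 hn' e).1 ⟨hTmax heA, heL⟩
    obtain ⟨t, ht, he⟩ := mem_autInducedBy.1 (hT _ this.1)
    refine ⟨t, ht, fun x hx => ?_⟩
    rw [show dn (m * x * m⁻¹) = _ from hdne ⟨_, mem_normalizerIn_conj hm.1 hx⟩,
      show dn x = _ from hdne ⟨x, hx⟩, ← he]
    simp only [Subgroup.coe_mul, Subgroup.coe_inv, MulAut.mul_apply, MulAut.inv_apply_self]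
    rfl
  have hY : Ns ⊔ M₀ ≤ normalizerIn S P₂ := sup_le hNsN (inf_le_right.trans opKer_le_normalizerIn)
  have hηP : Mor F P₂ P₂ η := hγP.congr fun y hy => by rw [hηe y (hP₂ hy), hdnP y hy]
  have hE : E ≤ normalizerIn S P₂ := by
    intro y hy
    obtain ⟨x, hx, rfl⟩ := hη.surj hy
    exact hη.map_mem_normalizerIn hηP (hP₂.trans le_sup_left) hx (hY hx).2
  -- `Ns ⊔ M₀` is larger than `Ns`
  have hbig : Ns < Ns ⊔ M₀ := by
    refine lt_of_le_of_ne le_sup_left fun e => ?_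
    have hsup : N < N ⊔ K := lt_of_le_of_ne le_sup_left fun e' => hKN (e' ▸ le_sup_right)
    have hsupS : N ⊔ K ≤ S := sup_le hNS (opKer_le P)
    have := finite_of_le hsupS
    obtain ⟨z, hz, hzn⟩ := Set.exists_of_ssubset (lt_inf_normalizer (isPGroup_of_le hS hsupS) hsup)
    have hz1 : z ∈ ((N ⊔ K : Subgroup Ω) : Set Ω) := hz.1
    rw [Subgroup.coe_mul_of_left_le_normalizer_right N K
      (hN.trans (normalizerIn_le_normalizer_opKer hP))] at hz1
    obtain ⟨u, hu, k, hk, rfl⟩ := hz1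
    have hkn : k ∈ Subgroup.normalizer (N : Set Ω) := by
      have := Subgroup.mul_mem _ (Subgroup.inv_mem _ (Subgroup.le_normalizer hu)) hz.2
      simpa using this
    have hkX : k ∈ X := ⟨⟨opKer_le P hk, hkn⟩, opKer_le_normalizerIn hk⟩
    have hkN : k ∉ N := fun h => hzn (N.mul_mem hu h)
    have hfk : f k ∈ M₀ := ⟨hf.map_mem_normalizerIn hfN hNX.le hkX hkn,
      mem_opKer.2 (OpMem.map hf hfP hPX hkX (mem_opKer.1 hk))⟩
    exact hkN ((hf.mem_iff hfN hNX.le hkX).1 (e ▸ Subgroup.mem_sup_right hfk))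
  obtain ⟨Xc, hXc, hcY⟩ := hc.restrict hY
  obtain ⟨ci, hci, hci1, -⟩ := hcY.exists_inv
  obtain ⟨E', hE', hcE⟩ := hc.restrict hE
  have hciP : Mor F P P₂ ci := by
    refine hci.restrict_eq ?_ (fun y hy => ?_)
      fun x hx => ⟨c x, hcP.map_mem hx, hci1 x (Subgroup.mem_sup_left (hP₂ hx))⟩
    · intro y hy
      obtain ⟨x, hx, rfl⟩ := hcP.surj hy
      exact hcY.map_mem (Subgroup.mem_sup_left (hP₂ hx))
    · obtain ⟨x, hx, rfl⟩ := hcP.surj hy
      rw [hci1 x (Subgroup.mem_sup_left (hP₂ hx))]; exact hx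
  have hMid : ExtK F p P (fun y => c (η (ci y))) := by
    have hXcS := hXc.trans hc.le_right
    have h1 := card_lt_card_of_lt hbig (hY.trans (normalizerIn_le _ _))
    rw [hcY.card_eq, ← hfN.card_eq] at h1
    have := Subgroup.card_le_of_le hXcS
    refine ih _ ?_ Xc E' _ rfl ?_ (hXc.trans hMc) (hcE.comp (hη.comp hci)) (hE'.trans hMc)
      (hcP.comp (hηP.comp hciP))
    · omega
    · refine lt_of_le_of_ne (fun y hy => ?_) fun e => by rw [← e] at h1; omega
      obtain ⟨x, hx, rfl⟩ := hcP.surj hy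
      exact hcY.map_mem (Subgroup.mem_sup_left (hP₂ hx))
  obtain ⟨χb, hχb, heb⟩ := hB
  obtain ⟨χi, hχi, hχi1, -⟩ := hχb.exists_inv
  obtain ⟨χm, hχm, hem⟩ := hMid
  obtain ⟨χa, hχa, hea⟩ := hA
  refine ⟨_, hχi.comp (hχm.comp hχa), fun x hx => ?_⟩
  have h1 : c (f x) ∈ P := hcP.map_mem (hfP.map_mem hx)
  have h2 : θ x ∈ P := hθP.map_mem hx
  show χi (χm (χa x)) = θ x
  rw [hea x hx, hem _ h1]
  dsimp only
  rw [hci1 _ (Subgroup.mem_sup_left (hP₂ (hfP.map_mem hx))),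
    hηe _ (hP₂ (hfP.map_mem hx)), hdnP _ (hfP.map_mem hx), hfi1 x (hPN.le hx)]
  rw [show c (g (θ x)) = χb (θ x) from (heb _ h2).symm]
  exact hχi1 _ (le_opKer hS hP h2)

/-- Every conjugate of a fully normalized subgroup outside the family reaches it. -/
theorem reach_all_big (hS : IsPGroup p S)
    (hgen : ∀ E : FusionSystem S, (∀ Q ∈ ℋ, F.Hom Q ⊆ E.Hom Q) → F ≤ E)
    (hconj : ∀ Q ∈ ℋ, ∀ R, F.IsConj Q R → R ∈ ℋ) (hPlt : P < S) (hPH : P ∉ ℋ)
    (hP : F.IsFullyNormalized P) (hBc : ConjStable F Big) (hBm : MonoIn S Big)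
    (hov : SatBig F p Big) (hgt : ∀ R X : Subgroup Ω, F.IsConj P R → R < X → X ≤ S → Big X) :
    ∀ R, F.IsConj P R → Reach F R P := by
  intro R hR
  have key := class_induction (Φ := fun R R' _ => Reach F R P ↔ Reach F R' P) hgen hconj hPlt hPH
    (fun _ _ _ _ _ _ h => h) ?_ (fun _ _ _ _ _ _ _ _ h h' => h.trans h') (fun _ _ _ _ _ _ _ _ h => h.symm)
  · obtain ⟨φ, hφ, hr⟩ := id hR
    obtain ⟨f, hf, -⟩ := exists_mor hφ hr
    exact (key P R f (isConj_refl F hP.1) hf).1 (reach_self hP.1)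
  · intro N N' R R' f hR hRN hf hfR
    have step : ∀ {M M' Q Q' : Subgroup Ω} {g : Ω → Ω}, F.IsConj P Q → Mor F M M' g → Q < M →
        Mor F Q Q' g → Reach F Q' P → Reach F Q P := by
      intro M M' Q Q' g hQ hg hQM hgQ h
      have hMS := hg.le_left
      have := finite_of_le hMS
      exact reach_of_step hS hP hBc hBm hov hg hQM hgQ h
        (hgt Q _ hQ (lt_inf_normalizer (isPGroup_of_le hS hMS) hQM) (inf_le_left.trans hMS))
    refine ⟨fun h => ?_, fun h => step hR hf hRN hfR h⟩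
    obtain ⟨fi, hfi, hfi1, -⟩ := hf.exists_inv
    have hR'N : R' ≤ N' := fun y hy => by
      obtain ⟨x, hx, rfl⟩ := hfR.surj hy
      exact hf.map_mem (hRN.le hx)
    have hfiR : Mor F R' R fi := by
      refine hfi.restrict_eq hR'N (fun y hy => ?_)
        fun x hx => ⟨f x, hfR.map_mem hx, hfi1 x (hRN.le hx)⟩
      obtain ⟨x, hx, rfl⟩ := hfR.surj hy
      rw [hfi1 x (hRN.le hx)]; exact hx
    refine step (isConj_trans hR hfR.isConj) hfi (lt_of_le_of_ne hR'N fun e => ?_) hfiR h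
    have h1 := card_lt_card_of_lt hRN hf.le_left
    rw [hfR.card_eq, e, ← hf.card_eq] at h1
    omega

/-- `H93.extK_all` with saturation assumed only strictly above `P`. -/
theorem extK_all_of_gt (hS : IsPGroup p S)
    (hgen : ∀ E : FusionSystem S, (∀ Q ∈ ℋ, F.Hom Q ⊆ E.Hom Q) → F ≤ E)
    (hconj : ∀ Q ∈ ℋ, ∀ R, F.IsConj Q R → R ∈ ℋ) (hPlt : P < S) (hPH : P ∉ ℋ)
    (hov : ∀ X : Subgroup Ω, P < X → X ≤ S →
      ∃ Y, F.IsConj X Y ∧ F.IsFullyAutomized p Y ∧ F.IsReceptive Y)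
    (hreach : ∀ R, F.IsConj P R → Reach F R P) :
    ∀ θ, Mor F P P θ → ExtK F p P θ := by
  have hP := hPlt.le
  set K := opKer F p P with hK
  have hPK : P ≤ K := le_opKer hS hP
  let Φ := fun (R R' : Subgroup Ω) (f : Ω → Ω) => ∀ a Ma b Mb,
    Mor F (normalizerIn S R) Ma a → Ma ≤ normalizerIn S P → Mor F R P a →
    Mor F (normalizerIn S R') Mb b → Mb ≤ normalizerIn S P → Mor F R' P b →
    ∃ χ, Mor F K K χ ∧ ∀ x ∈ R, χ (a x) = b (f x)
  have key := class_induction (Φ := Φ) hgen hconj hPlt hPH ?congr ?ext ?comp ?inv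
  · intro θ hθ
    have hid : Mor F (normalizerIn S P) (normalizerIn S P) (fun x => x) :=
      Mor.id F (normalizerIn_le S P)
    exact key P P θ (isConj_refl F hP) hθ _ _ _ _ hid le_rfl (Mor.id F hP) hid le_rfl (Mor.id F hP)
  case congr =>
    intro R R' f f' _ he h a Ma b Mb ha hMa haP hb hMb hbP
    obtain ⟨χ, hχ, hχe⟩ := h a Ma b Mb ha hMa haP hb hMb hbP
    exact ⟨χ, hχ, fun x hx => by rw [← he x hx]; exact hχe x hx⟩
  case ext =>
    intro N N' R R' f hR hRN hf hfR a Ma b Mb ha hMa haP hb hMb hbP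
    have hNS := hf.le_left
    have := finite_of_le hNS
    have hlt := lt_inf_normalizer (isPGroup_of_le hS hNS) hRN
    set N₀ := N ⊓ Subgroup.normalizer (R : Set Ω) with hN₀
    obtain ⟨A, -, hfN⟩ := hf.restrict (inf_le_left : N₀ ≤ N)
    have hA2 : A ≤ normalizerIn S R' := by
      intro y hy
      obtain ⟨x, hx, rfl⟩ := hfN.surj hy
      exact hf.map_mem_normalizerIn hfR hRN.le hx.1 hx.2
    obtain ⟨B, hB, hbA⟩ := hb.restrict hA2
    obtain ⟨X, hX, haX⟩ := ha.restrict (fun x hx => ⟨hNS hx.1, hx.2⟩ : N₀ ≤ normalizerIn S R)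
    obtain ⟨ai, hai, hai1, -⟩ := haX.exists_inv
    have hPX : P ≤ X := fun y hy => by
      obtain ⟨x, hx, rfl⟩ := haP.surj hy
      exact haX.map_mem (hlt.le hx)
    have haiR : Mor F P R ai := by
      refine hai.restrict_eq hPX (fun y hy => ?_) fun x hx => ⟨a x, haP.map_mem hx, hai1 x (hlt.le hx)⟩
      obtain ⟨x, hx, rfl⟩ := haP.surj hy
      rw [hai1 x (hlt.le hx)]; exact hx
    have hPX' : P < X := by
      refine lt_of_le_of_ne hPX fun e => ?_
      have h1 := card_lt_card_of_lt hlt (inf_le_left.trans hNS)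
      rw [haX.card_eq, ← e, haP.card_eq] at h1
      omega
    obtain ⟨χ, hχ, hχe⟩ := extK_of_extends_of_gt hS hP hov hreach _ X B _ rfl hPX' (hX.trans hMa)
      (hbA.comp (hfN.comp hai)) (hB.trans hMb) (hbP.comp (hfR.comp haiR))
    refine ⟨χ, hχ, fun x hx => ?_⟩
    rw [hχe _ (haP.map_mem hx)]
    dsimp only
    rw [hai1 x (hlt.le hx)]
  case comp =>
    intro R R' R'' f f' hR hf _ h h' a Ma b Mb ha hMa haP hb hMb hbP
    obtain ⟨c, Mc, hc, hMc, hcP⟩ := hreach R' (isConj_trans hR hf.isConj)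
    obtain ⟨χ, hχ, hχe⟩ := h a Ma c Mc ha hMa haP hc hMc hcP
    obtain ⟨χ', hχ', hχe'⟩ := h' c Mc b Mb hc hMc hcP hb hMb hbP
    refine ⟨_, hχ'.comp hχ, fun x hx => ?_⟩
    show χ' (χ (a x)) = b (f' (f x))
    rw [hχe x hx, hχe' _ (hf.map_mem hx)]
  case inv =>
    intro R R' f f' _ hf hf' he h a Ma b Mb ha hMa haP hb hMb hbP
    obtain ⟨χ, hχ, hχe⟩ := h b Mb a Ma hb hMb hbP ha hMa haP
    obtain ⟨χi, hχi, hχi1, -⟩ := hχ.exists_inv
    refine ⟨χi, hχi, fun y hy => ?_⟩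
    obtain ⟨x, hx, rfl⟩ := hf.surj hy
    rw [he x hx, ← hχe x hx]
    exact hχi1 _ (hPK (hbP.map_mem hx))

/-- The saturation criterion of `H93.isSaturated_of_family`, by induction on a weight. -/
theorem isSaturated_of_family_weight (hS : IsPGroup p S) (μ : Subgroup Ω → ℕ)
    (hμc : ∀ X Y, F.IsConj X Y → μ X = μ Y)
    (hμm : ∀ P Q : Subgroup Ω, P < Q → Q ≤ S → μ P < μ Q)
    (hconj : ∀ P ∈ ℋ, ∀ Q, F.IsConj P Q → Q ∈ ℋ)
    (hsat : ∀ P ∈ ℋ, (∀ X : Subgroup Ω, X ≤ S → μ P < μ X →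
        ∃ Y, F.IsConj X Y ∧ F.IsFullyAutomized p Y ∧ F.IsReceptive Y) →
      ∃ Q, F.IsConj P Q ∧ F.IsFullyAutomized p Q ∧ F.IsReceptive Q)
    (hgen : ∀ E : FusionSystem S, (∀ P ∈ ℋ, F.Hom P ⊆ E.Hom P) → F ≤ E)
    (hstar : ∀ P : Subgroup Ω, F.IsCentric P → P ∉ ℋ →
      (∀ X : Subgroup Ω, X ≤ S → μ P < μ X →
        ∃ Y, F.IsConj X Y ∧ F.IsFullyAutomized p Y ∧ F.IsReceptive Y) →
      ∃ Q, F.IsConj P Q ∧ ¬ (autInducedBy S Q ⊓ opAut F p Q ≤ Inn Q)) : F.IsSaturated p := by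
  suffices h : ∀ (n : ℕ) (P : Subgroup Ω), μ S - μ P = n → P ≤ S →
      ∃ Q, F.IsConj P Q ∧ F.IsFullyAutomized p Q ∧ F.IsReceptive Q from fun P hP => h _ P rfl hP
  have hmono : ∀ X Y : Subgroup Ω, X ≤ Y → Y ≤ S → μ X ≤ μ Y := fun X Y h hY =>
    (eq_or_lt_of_le h).elim (fun e => (congrArg μ e).le) fun h' => (hμm X Y h' hY).le
  intro n
  induction n using Nat.strong_induction_on with
  | _ n ih =>
  intro P₀ hn hP₀S
  by_cases hH : P₀ ∈ ℋ
  · refine hsat P₀ hH fun X hXS hX => ih _ ?_ X rfl hXS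
    have := hmono X S hXS le_rfl
    omega
  obtain ⟨P, hP₀P, hP⟩ := exists_isFullyNormalized F hP₀S
  have hPH : P ∉ ℋ := fun h => hH (hconj P h P₀ (isConj_symm hP₀P))
  have hBc : ConjStable F (fun X => μ P < μ X) := fun X Y h hX =>
    lt_of_lt_of_eq hX (hμc X Y h)
  have hBm : MonoIn S (fun X => μ P < μ X) := fun X Y h hY hX => lt_of_lt_of_le hX (hmono X Y h hY)
  have hov : SatBig F p (fun X => μ P < μ X) := by
    intro X hXS hX
    refine ih _ ?_ X rfl hXS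
    have h1 := hmono X S hXS le_rfl
    have h2 := hμc P₀ P hP₀P
    have hX' : μ P < μ X := hX
    omega
  have hgt : ∀ R X : Subgroup Ω, F.IsConj P R → R < X → X ≤ S → μ P < μ X := fun R X hR hX hXS =>
    lt_of_eq_of_lt (hμc P R hR) (hμm R X hX hXS)
  have hPlt : P < S := by
    refine lt_of_le_of_ne hP.1 fun e => ?_
    subst e
    have hc : F.IsCentric P := ⟨le_rfl, fun Q hQ => by
      obtain ⟨φ, hφ, rfl⟩ := hQ
      rw [range_eq_self hφ]
      exact centralizerIn_le P P⟩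
    obtain ⟨Q, hQ, hne⟩ := hstar P hc hPH hov
    obtain ⟨φ, hφ, rfl⟩ := hQ
    refine hne (inf_le_left.trans ?_)
    rw [range_eq_self hφ, inn_eq_autInducedBy]
  have hPc := isConj_refl F hP.1
  have hreach := reach_all_big hS hgen hconj hPlt hPH hP hBc hBm hov hgt
  -- the kernel is larger than `P`
  obtain ⟨k, hk, hkP⟩ : ∃ k, OpMem F p P k ∧ k ∉ P := by
    by_cases hc : F.IsCentric P
    · obtain ⟨Q, hQ, hne⟩ := hstar P hc hPH hov
      obtain ⟨α, ⟨hα, hα'⟩, hαn⟩ := SetLike.not_le_iff_exists.1 hne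
      obtain ⟨s, hs, hse⟩ := mem_autInducedBy.1 hα
      obtain ⟨a, Ma, ha, -, haP⟩ := hreach Q hQ
      have hsn : s ∈ normalizerIn S Q := ⟨hs, mem_normalizer_of_conj_eq hse⟩
      have hQN := le_normalizerIn (isConj_le_right hQ)
      refine ⟨a s, OpMem.map ha haP hQN hsn ⟨hs, α, hα', hse⟩, fun h => hαn ?_⟩
      rw [inn_eq_autInducedBy]
      exact mem_autInducedBy.2 ⟨s, (ha.mem_iff haP hQN hsn).1 h, hse⟩
    · have : ¬ ∀ Q, F.IsConj P Q → centralizerIn S Q ≤ Q := fun h => hc ⟨hP.1, h⟩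
      push Not at this
      obtain ⟨Q, hQ, hne⟩ := this
      obtain ⟨s, hs, hsn⟩ := SetLike.not_le_iff_exists.1 hne
      obtain ⟨a, Ma, ha, -, haP⟩ := hreach Q hQ
      have hQN := le_normalizerIn (isConj_le_right hQ)
      have hsN := centralizerIn_le_normalizerIn S Q hs
      exact ⟨a s, mem_opKer.1 (centralizerIn_le_opKer
        (ha.map_mem_centralizerIn haP hQN hsN (mem_centralizerIn.1 hs).2)),
        fun h => hsn ((ha.mem_iff haP hQN hsN).1 h)⟩
  have hPK : P < opKer F p P :=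
    lt_of_le_of_ne (le_opKer hS hP.1) fun e => hkP (e ▸ mem_opKer.2 hk)
  obtain ⟨Ks, hKs, h₁, h₂⟩ := hov _ (opKer_le P) (hgt P _ hPc hPK (opKer_le P))
  obtain ⟨a, Ma, ha, -, haK⟩ := exists_mor_normalizer hS h₁ h₂ hKs
  have hPN : normalizerIn S P ≤ normalizerIn S (opKer F p P) :=
    fun x hx => ⟨hx.1, normalizerIn_le_normalizer_opKer hP.1 hx⟩
  obtain ⟨M, -, haN⟩ := ha.restrict hPN
  obtain ⟨P₂, -, haP⟩ := haN.restrict (le_normalizerIn hP.1)
  have := finite_of_le (normalizerIn_le S P₂)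
  have hM : M = normalizerIn S P₂ := by
    refine Subgroup.eq_of_le_of_card_ge (fun y hy => ?_) ?_
    · obtain ⟨x, hx, rfl⟩ := haN.surj hy
      exact haN.map_mem_normalizerIn haP (le_normalizerIn hP.1) hx hx.2
    · rw [← haN.card_eq]; exact hP.2 P₂ haP.isConj
  subst hM
  have hP₂ : F.IsFullyNormalized P₂ := IsFullyNormalized.of_isConj_card hP haP.isConj haN.card_eq.le
  obtain ⟨ai, hai, hai1, hai2⟩ := haN.exists_inv
  have haiP : Mor F P₂ P ai := by
    refine hai.restrict_eq (le_normalizerIn hP₂.1) (fun y hy => ?_)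
      fun x hx => ⟨a x, haP.map_mem hx, hai1 x (le_normalizerIn hP.1 hx)⟩
    obtain ⟨x, hx, rfl⟩ := haP.surj hy
    rw [hai1 x (le_normalizerIn hP.1 hx)]; exact hx
  have hK2 : Ks = opKer F p P₂ := by
    apply le_antisymm
    · intro y hy
      obtain ⟨x, hx, rfl⟩ := haK.surj hy
      exact mem_opKer.2 (OpMem.map haN haP (le_normalizerIn hP.1) (opKer_le_normalizerIn hx)
        (mem_opKer.1 hx))
    · intro y hy
      have hy' := opKer_le_normalizerIn hy
      have h := OpMem.map hai haiP (le_normalizerIn hP₂.1) hy' (mem_opKer.1 hy)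
      rw [← hai2 y hy']
      exact haK.map_mem (mem_opKer.2 h)
  subst hK2
  have hPH₂ : P₂ ∉ ℋ := fun h => hPH (hconj P₂ h P (isConj_symm haP.isConj))
  have hPlt₂ : P₂ < S := lt_of_le_of_ne hP₂.1 fun e => by
    have h1 := card_lt_card_of_lt hPlt le_rfl
    rw [haP.card_eq, e] at h1
    omega
  have hreach₂ := reach_all_big hS hgen hconj hPlt₂ hPH₂ hP₂ hBc hBm hov
    (fun R X hR hX hXS => hgt R X (isConj_trans haP.isConj hR) hX hXS)
  obtain ⟨hA, hR⟩ := class_saturated hS hP₂ h₁ h₂ hreach₂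
    (extK_all_of_gt hS hgen hconj hPlt₂ hPH₂
    (fun X hX hXS => hov X hXS (hgt P₂ X haP.isConj hX hXS)) hreach₂)
  exact ⟨P₂, isConj_trans hP₀P haP.isConj, hA, hR⟩

end Cfsg.Agent.H44.BigClimb
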