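import Mathlib
import Cfsg.Prelude.Def_Perm
import Cfsg.Agent.H31.Mobius
import Cfsg.Agent.S0683

/-!
# Sharply triply transitive groups of odd degree
-/

set_option autoImplicit false

namespace Cfsg.Agent.H44

open MulAction OnePoint Matrix

/-- A commutative near-field is a field. -/
theorem exists_field_of_comm {B : Type*} (N : Cfsg.NearField B)
    (hcomm : ∀ a b : B, a * b = b * a) :
    ∃ inst : Field B, (∀ a b : B, inst.mul a b = N.mul a b) ∧ (∀ a b : B, inst.add a b = N.add a b) ∧
      inst.zero = N.zero ∧ inst.one = N.one := by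
  letI := N
  have hl : ∀ a b c : B, a * (b + c) = a * b + a * c := fun a b c => by
    rw [hcomm, Cfsg.NearField.right_distrib, hcomm b, hcomm c]
  have hz : ∀ a : B, 0 * a = 0 := fun a => by rw [hcomm, Cfsg.NearField.mul_zero]
  have hac : ∀ a b : B, a + b = b + a := by
    intro a b
    have h1 : (1 + 1) * (a + b) = a + b + (a + b) := by
      rw [Cfsg.NearField.right_distrib, one_mul]
    have h2 : (1 + 1) * (a + b) = a + a + (b + b) := by
      rw [hl, Cfsg.NearField.right_distrib, one_mul, Cfsg.NearField.right_distrib, one_mul]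
    have h3 : a + (b + a + b) = a + (a + b + b) := by
      have := h1.symm.trans h2
      simpa [add_assoc] using this
    exact (add_right_cancel (add_left_cancel h3)).symm
  letI R : CommRing B :=
    { (inferInstance : AddGroup B), (inferInstance : Monoid B) with
      add_comm := hac
      left_distrib := hl
      right_distrib := Cfsg.NearField.right_distrib
      zero_mul := hz
      mul_zero := Cfsg.NearField.mul_zero
      mul_comm := hcomm }
  have hF : IsField B := by
    refine ⟨⟨(0 : B), 1, Cfsg.NearField.zero_ne_one⟩, mul_comm, fun {a} ha => ?_⟩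
    obtain ⟨b, hb, -⟩ := Cfsg.NearField.exists_inv a ha
    exact ⟨b, hb⟩
  exact ⟨hF.toField, fun _ _ => rfl, fun _ _ => rfl, rfl, rfl⟩

/-- A group of permutations of a projective line of even characteristic with the affine
stabiliser and an inversion is `SL₂`. -/
theorem sl2_of_affine {α : Type*} [Fintype α] [DecidableEq α] (G : Subgroup (Equiv.Perm α)) (i0 : α)
    [Field {x : α // x ≠ i0}] (hcard : Odd (Fintype.card α))
    (haff : ∀ a b : {x : α // x ≠ i0}, a ≠ 0 → ∃ g : G, g • i0 = i0 ∧
      ∀ x : {x : α // x ≠ i0}, g • (x : α) = ((x * a + b : {x : α // x ≠ i0}) : α))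
    (hstab : ∀ g : G, g • i0 = i0 → ∃ a b : {x : α // x ≠ i0}, a ≠ 0 ∧
      ∀ x : {x : α // x ≠ i0}, g • (x : α) = ((x * a + b : {x : α // x ≠ i0}) : α))
    (hw : ∃ w : G, w • i0 = ((0 : {x : α // x ≠ i0}) : α) ∧
      w • ((0 : {x : α // x ≠ i0}) : α) = i0 ∧
      ∀ x : {x : α // x ≠ i0}, x ≠ 0 → w • (x : α) = ((x⁻¹ : {x : α // x ≠ i0}) : α)) :
    ∃ a : ℕ, 1 ≤ a ∧ Fintype.card α = 2 ^ a + 1 ∧ ∃ (F : Type) (_ : Field F) (_ : Fintype F),
      Fintype.card F = 2 ^ a ∧ Nonempty (G ≃* Matrix.SpecialLinearGroup (Fin 2) F) := by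
  classical
  have hcardB : Fintype.card {x : α // x ≠ i0} + 1 = Fintype.card α := by
    rw [Fintype.card_subtype_compl, Fintype.card_subtype_eq]
    have := Fintype.card_pos_iff.mpr ⟨i0⟩
    omega
  obtain ⟨w, w0, w1, hwx⟩ := hw
  have hev : Even (Fintype.card {x : α // x ≠ i0}) := by
    obtain ⟨k, hk⟩ := hcard
    exact ⟨k, by omega⟩
  have hchar : ringChar {x : α // x ≠ i0} = 2 := FiniteField.even_card_iff_char_two.mpr (Nat.even_iff.mp hev)
  haveI : CharP {x : α // x ≠ i0} 2 := hchar ▸ ringChar.charP {x : α // x ≠ i0}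
  obtain ⟨a, ha2⟩ := FiniteField.card {x : α // x ≠ i0} 2
  refine ⟨a, a.pos, by rw [← hcardB, ha2.2], ?_⟩
  let e : OnePoint {x : α // x ≠ i0} ≃ α := Equiv.optionSubtypeNe i0
  have einf : e ∞ = i0 := rfl
  have esome : ∀ x : {x : α // x ≠ i0}, e (x : OnePoint {x : α // x ≠ i0}) = (x : α) := fun x => rfl
  let ρ : G →* Equiv.Perm (OnePoint {x : α // x ≠ i0}) :=
    { toFun := fun g => (e.trans (g : Equiv.Perm α)).trans e.symm
      map_one' := Equiv.ext fun x => by simp
      map_mul' := fun g h => Equiv.ext fun x => by simp }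
  have hρ : ∀ (g : G) (x : OnePoint {x : α // x ≠ i0}), e (ρ g x) = g • e x := fun g x => e.apply_symm_apply _
  have hρinj : Function.Injective ρ := fun g h hgh => Subtype.ext (Equiv.ext fun x => by
    have h1 := hρ g (e.symm x)
    have h2 := hρ h (e.symm x)
    rw [hgh, h2, Equiv.apply_symm_apply] at h1
    exact h1.symm)
  have hrange : ρ.range = (H31.mobius (F := {x : α // x ≠ i0})).range := by
    refine H31.range_eq_mobius_range ρ (fun b => ?_) (fun r hr => ?_) ?_ (fun g hg => ?_)
    · obtain ⟨g, g0, gx⟩ := haff 1 b one_ne_zero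
      refine ⟨g, Equiv.ext fun x => e.injective ?_⟩
      rw [hρ]
      cases x with
      | infty => rw [H31.mobius_sTrans_infty, einf, g0]
      | coe x => rw [H31.mobius_sTrans_some, esome, esome, gx, mul_one]
    · obtain ⟨g, g0, gx⟩ := haff (r * r) 0 (mul_ne_zero hr hr)
      refine ⟨g, Equiv.ext fun x => e.injective ?_⟩
      rw [hρ]
      cases x with
      | infty => rw [H31.mobius_sDiag_infty, einf, g0]
      | coe x =>
        rw [H31.mobius_sDiag_some, esome, esome, gx, add_zero, sq, mul_comm]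
    · refine ⟨w, Equiv.ext fun x => e.injective ?_⟩
      rw [hρ]
      cases x with
      | infty => rw [H31.mobius_sWeyl_infty, einf, esome, w0]
      | coe x =>
        rw [H31.mobius_sWeyl_some, esome]
        split_ifs with hx
        · rw [hx, einf, w1]
        · rw [esome, hwx x hx, CharTwo.neg_eq, one_div]
    · have hg' : g • i0 = i0 := by rw [← einf, ← hρ, hg]
      obtain ⟨c, d, hc, hcd⟩ := hstab g hg'
      obtain ⟨r, hr⟩ := FiniteField.isSquare_of_char_two hchar c
      have hr0 : r ≠ 0 := by rintro rfl; exact hc (by rw [hr, mul_zero])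
      refine ⟨H31.sTrans d * H31.sDiag r hr0, Equiv.ext fun x => e.injective ?_⟩
      rw [map_mul, Equiv.Perm.mul_apply, hρ]
      cases x with
      | infty => rw [H31.mobius_sDiag_infty, H31.mobius_sTrans_infty, einf, hg']
      | coe x =>
        rw [H31.mobius_sDiag_some, H31.mobius_sTrans_some, esome, esome, hcd, hr, sq, mul_comm]
  obtain ⟨iso⟩ := H31.nonempty_mulEquiv_psl_of_range_eq ρ hρinj hrange
  have hbot : Subgroup.center (SpecialLinearGroup (Fin 2) {x : α // x ≠ i0}) = ⊥ := by
    refine (Subgroup.eq_bot_iff_forall _).2 fun z hz' => ?_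
    obtain ⟨r, hr, hzr⟩ := Matrix.SpecialLinearGroup.mem_center_iff.mp hz'
    rw [Fintype.card_fin] at hr
    have hr1 : r = 1 := by
      have h0 : (r - 1) ^ 2 = 0 := by rw [CharTwo.sub_eq_add, CharTwo.add_sq, hr, one_pow, CharTwo.add_self_eq_zero]
      exact sub_eq_zero.mp (pow_eq_zero_iff two_ne_zero |>.mp h0)
    refine Subtype.ext ?_
    rw [← hzr, hr1, map_one]
    rfl
  haveI : Small.{0} {x : α // x ≠ i0} := Countable.toSmall {x : α // x ≠ i0}
  let φ := Shrink.ringEquiv.{0} (α := {x : α // x ≠ i0})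
  haveI : Finite (Shrink.{0} {x : α // x ≠ i0}) := Finite.of_equiv _ φ.toEquiv.symm
  letI : Fintype (Shrink.{0} {x : α // x ≠ i0}) := Fintype.ofFinite _
  refine ⟨Shrink.{0} {x : α // x ≠ i0}, inferInstance, inferInstance, ?_, ?_⟩
  · rw [Fintype.card_congr φ.toEquiv, ha2.2]
  · let m : SpecialLinearGroup (Fin 2) {x : α // x ≠ i0} →* SpecialLinearGroup (Fin 2) (Shrink.{0} {x : α // x ≠ i0}) :=
      SpecialLinearGroup.map φ.symm.toRingHom
    have hm' : Function.Bijective m := by
      refine ⟨fun A C h => ?_, fun A => ⟨SpecialLinearGroup.map φ.toRingHom A, ?_⟩⟩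
      · refine Subtype.ext (Matrix.ext fun i j => ?_)
        have := congrArg (fun M : SpecialLinearGroup (Fin 2) (Shrink.{0} {x : α // x ≠ i0}) => M.1 i j) h
        exact φ.symm.injective this
      · refine Subtype.ext (Matrix.ext fun i j => ?_)
        simp [m]
    exact ⟨(iso.trans (QuotientGroup.quotientMulEquivOfEq hbot)).trans
      (QuotientGroup.quotientBot.trans (MulEquiv.ofBijective m hm'))⟩


/-- Sharply triply transitive groups of odd degree are `SL₂` over a field of even order. -/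
theorem zassenhaus_odd {α : Type*} [Fintype α] [DecidableEq α] (hm : 3 ≤ Fintype.card α)
    (hodd : Odd (Fintype.card α)) (G : Subgroup (Equiv.Perm α))
    (h3 : IsMultiplyPretransitive G α 3)
    (hfix : ∀ g : G, 3 ≤ Nat.card (fixedBy α g) → g = 1) :
    ∃ a : ℕ, 1 ≤ a ∧ Fintype.card α = 2 ^ a + 1 ∧ ∃ (F : Type) (_ : Field F) (_ : Fintype F),
      Fintype.card F = 2 ^ a ∧ Nonempty (G ≃* Matrix.SpecialLinearGroup (Fin 2) F) := by
  classical
  have hinj3 : ∀ {u v w : α}, u ≠ v → v ≠ w → u ≠ w → Function.Injective ![u, v, w] := by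
    intro u v w h1 h2 h3 i j hij
    fin_cases i <;> fin_cases j <;> simp_all
  have key : ∀ {x0 x1 x2 y0 y1 y2 : α}, x0 ≠ x1 → x1 ≠ x2 → x0 ≠ x2 → y0 ≠ y1 → y1 ≠ y2 → y0 ≠ y2 →
      ∃ g : G, g • x0 = y0 ∧ g • x1 = y1 ∧ g • x2 = y2 := by
    intro x0 x1 x2 y0 y1 y2 a1 a2 a3 b1 b2 b3
    obtain ⟨g, hg⟩ := (isMultiplyPretransitive_iff.1 h3) ⟨![x0, x1, x2], hinj3 a1 a2 a3⟩
      ⟨![y0, y1, y2], hinj3 b1 b2 b3⟩
    exact ⟨g, congrFun (congrArg DFunLike.coe hg) 0, congrFun (congrArg DFunLike.coe hg) 1,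
      congrFun (congrArg DFunLike.coe hg) 2⟩
  have key3 : ∀ (g : G) {x y z : α}, x ≠ y → y ≠ z → x ≠ z → g • x = x → g • y = y → g • z = z →
      g = 1 := by
    intro g x y z h1 h2 h3' e1 e2 e3
    refine hfix g ?_
    calc 3 = ({x, y, z} : Finset α).card := by rw [Finset.card_eq_three.mpr ⟨x, y, z, h1, h3', h2, rfl⟩]
      _ = Nat.card ({x, y, z} : Finset α) := by rw [Nat.card_eq_fintype_card, Fintype.card_coe]
      _ ≤ Nat.card (fixedBy α g) := by
        refine Nat.card_le_card_of_injective (fun a => (⟨a.1, ?_⟩ : fixedBy α g))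
          (fun a b h => Subtype.ext (congrArg (fun t : fixedBy α g => (t : α)) h))
        have ha := a.2
        simp only [Finset.mem_insert, Finset.mem_singleton] at ha
        rcases ha with h | h | h <;> rw [mem_fixedBy, h] <;> assumption
  obtain ⟨i0⟩ : Nonempty α := Fintype.card_pos_iff.mp (by omega)
  let B := {x : α // x ≠ i0}
  have hcardB : Fintype.card B + 1 = Fintype.card α := by
    rw [Fintype.card_subtype_compl, Fintype.card_subtype_eq]
    omega
  let S := stabilizer G i0
  let res : S →* Equiv.Perm B :=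
    { toFun := fun g => ((g : G) : Equiv.Perm α).subtypePerm fun x => by
        have hg : ((g : G) : Equiv.Perm α) i0 = i0 := g.2
        exact not_congr ⟨fun h => ((g : G) : Equiv.Perm α).injective (h.trans hg.symm),
          fun h => by rw [h]; exact hg⟩
      map_one' := Equiv.ext fun x => Subtype.ext rfl
      map_mul' := fun a b => Equiv.ext fun x => Subtype.ext rfl }
  set H := res.range with hH
  haveI hH2 : IsMultiplyPretransitive H B 2 := by
    rw [is_two_pretransitive_iff]
    intro a b c d hab hcd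
    obtain ⟨g, g0, g1, g2⟩ := key (x0 := i0) (x1 := a.1) (x2 := b.1) (y0 := i0) (y1 := c.1) (y2 := d.1)
      a.2.symm (fun h => hab (Subtype.ext h)) b.2.symm c.2.symm (fun h => hcd (Subtype.ext h)) d.2.symm
    exact ⟨⟨res ⟨g, g0⟩, ⟨g, g0⟩, rfl⟩, Subtype.ext g1, Subtype.ext g2⟩
  have hsharp : ∀ x : Fin 2 ↪ B, stabilizer H x = ⊥ := by
    intro x
    refine (Subgroup.eq_bot_iff_forall _).2 ?_
    rintro ⟨σ, g, rfl⟩ hσ
    have hx : ∀ i : Fin 2, res g (x i) = x i := fun i =>
      congrFun (congrArg DFunLike.coe (mem_stabilizer_iff.1 hσ)) i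
    have hg1 : (g : G) = 1 := key3 g.1 (x 0).2.symm
      (fun h => (by decide : (0 : Fin 2) ≠ 1) (x.injective (Subtype.ext h))) (x 1).2.symm g.2
      (congrArg Subtype.val (hx 0)) (congrArg Subtype.val (hx 1))
    exact Subtype.ext ((congrArg res (show g = 1 from Subtype.ext hg1)).trans (map_one res))
  obtain ⟨N, hN⟩ := Cfsg.Agent.S0683.result H hsharp (by omega)
  letI := N
  -- affine elements
  have haff : ∀ a b : B, a ≠ 0 → ∃ g : G, g • i0 = i0 ∧ ∀ x : B, g • (x : α) = ((x * a + b : B) : α) := by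
    intro a b ha
    obtain ⟨b', hb', hb''⟩ := Cfsg.NearField.exists_inv a ha
    have hmem : ({ toFun := fun x => x * a + b, invFun := fun x => (x + -b) * b',
                   left_inv := fun x => by
                     show (x * a + b + -b) * b' = x
                     rw [add_neg_cancel_right, mul_assoc, hb', mul_one],
                   right_inv := fun x => by
                     show (x + -b) * b' * a + b = x
                     rw [mul_assoc, hb'', mul_one, neg_add_cancel_right] } : Equiv.Perm B) ∈ H :=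
      (hN _).mpr ⟨a, b, ha, fun x => rfl⟩
    obtain ⟨g, hg⟩ := hmem
    refine ⟨g.1, g.2, fun x => ?_⟩
    have := congrArg (fun e : Equiv.Perm B => ((e x : B) : α)) hg
    exact this
  have h01 : ((0 : B) : α) ≠ ((1 : B) : α) := fun h => Cfsg.NearField.zero_ne_one (Subtype.ext h)
  obtain ⟨w, w0, w1, w2⟩ := key (x0 := i0) (x1 := ((0 : B) : α)) (x2 := ((1 : B) : α))
    (y0 := ((0 : B) : α)) (y1 := i0) (y2 := ((1 : B) : α))
    (0 : B).2.symm h01 (1 : B).2.symm (0 : B).2 (1 : B).2.symm h01
  have hww : w * w = 1 := key3 _ (0 : B).2.symm h01 (1 : B).2.symm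
    (by rw [mul_smul, w0, w1]) (by rw [mul_smul, w1, w0]) (by rw [mul_smul, w2, w2])
  have hwfix : ∀ x : α, w • x = x → x = ((1 : B) : α) := by
    intro x hx
    by_contra hne
    have h := Equiv.Perm.card_fixedPoints_modEq (p := 2) (n := 1)
      (f := show Function.End α from ⇑((w : G) : Equiv.Perm α))
      (funext fun x => congrArg (fun t : G => (t : Equiv.Perm α) x) hww)
    by_cases hge : 3 ≤ Nat.card (fixedBy α w)
    · rw [hfix w hge, one_smul] at w0
      exact (0 : B).2 w0.symm
    · have h2 : Nat.card (fixedBy α w) = 2 := by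
        refine le_antisymm (by omega) ?_
        calc 2 = Nat.card ({x, ((1 : B) : α)} : Set α) := by
              rw [Nat.card_coe_set_eq, Set.ncard_pair hne]
          _ ≤ Nat.card (fixedBy α w) := by
              refine Nat.card_le_card_of_injective (fun a => (⟨a.1, ?_⟩ : fixedBy α w))
                (fun a b e => Subtype.ext (congrArg (fun t : fixedBy α w => (t : α)) e))
              rcases a.2 with e | e
              · rw [mem_fixedBy, e]; exact hx
              · rw [Set.mem_singleton_iff] at e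
                rw [mem_fixedBy, e]; exact w2
      have he : Fintype.card (Function.fixedPoints ⇑((w : G) : Equiv.Perm α)) = 2 := by
        rw [← Nat.card_eq_fintype_card]
        exact h2
      rw [Nat.ModEq, he] at h
      obtain ⟨k, hk⟩ := hodd
      omega
  -- the two point stabiliser is inverted
  let K := stabilizer G i0 ⊓ stabilizer G ((0 : B) : α)
  have hwinv : w⁻¹ = w := inv_eq_of_mul_eq_one_right hww
  have hwK : ∀ k ∈ K, w * k * w ∈ K := by
    rintro k ⟨k1, k2⟩
    refine ⟨?_, ?_⟩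
    · show (w * k * w) • i0 = i0
      rw [mul_smul, w0, mul_smul, show k • ((0 : B) : α) = ((0 : B) : α) from k2, w1]
    · show (w * k * w) • ((0 : B) : α) = ((0 : B) : α)
      rw [mul_smul, w1, mul_smul, show k • i0 = i0 from k1, w0]
  have hinv : ∀ k ∈ K, w * k * w = k⁻¹ := by
    let ψ : K → K := fun k => ⟨k.1⁻¹ * (w * k.1 * w), mul_mem (inv_mem k.2) (hwK _ k.2)⟩
    have hψ : Function.Injective ψ := by
      intro a b h
      have h' : a.1⁻¹ * (w * a.1 * w) = b.1⁻¹ * (w * b.1 * w) := congrArg Subtype.val h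
      have hc : b.1 * a.1⁻¹ * w = w * (b.1 * a.1⁻¹) := by
        calc b.1 * a.1⁻¹ * w = b.1 * (a.1⁻¹ * (w * a.1 * w)) * (w * a.1⁻¹) := by
              calc b.1 * a.1⁻¹ * w = b.1 * a.1⁻¹ * w * a.1 * (w * w) * a.1⁻¹ := by rw [hww]; group
                _ = _ := by group
          _ = b.1 * (b.1⁻¹ * (w * b.1 * w)) * (w * a.1⁻¹) := by rw [h']
          _ = w * b.1 * (w * w) * a.1⁻¹ := by group
          _ = w * (b.1 * a.1⁻¹) := by rw [hww]; group
      set d := b.1 * a.1⁻¹ with hd
      have hdK : d ∈ K := mul_mem b.2 (inv_mem a.2)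
      have hd1 : d • ((1 : B) : α) = ((1 : B) : α) := hwfix _ (by
        rw [← mul_smul, ← hc, mul_smul, w2])
      have := key3 d (0 : B).2.symm h01 (1 : B).2.symm hdK.1 hdK.2 hd1
      exact Subtype.ext (mul_inv_eq_one.mp this).symm
    intro x hx
    obtain ⟨k, hk⟩ := (Finite.injective_iff_surjective.mp hψ) ⟨x, hx⟩
    have hk' : k.1⁻¹ * (w * k.1 * w) = x := congrArg Subtype.val hk
    rw [← hk', _root_.mul_inv_rev, inv_inv, _root_.mul_inv_rev, _root_.mul_inv_rev, hwinv]
    calc w * (k.1⁻¹ * (w * k.1 * w)) * w = w * k.1⁻¹ * w * k.1 * (w * w) := by group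
      _ = w * (k.1⁻¹ * w) * k.1 := by rw [hww]; group
  have hKcomm : ∀ a ∈ K, ∀ b ∈ K, a * b = b * a := by
    intro a ha b hb
    have h1 := hinv (a * b) (mul_mem ha hb)
    have h2 : w * (a * b) * w = (w * a * w) * (w * b * w) := by
      calc w * (a * b) * w = w * a * (w * w) * b * w := by rw [hww]; group
        _ = _ := by group
    rw [h1, hinv a ha, hinv b hb, ← _root_.mul_inv_rev] at h2
    exact inv_injective h2
  have hz : ∀ a : B, (0 : B) * a = 0 := fun a => by
    have h := Cfsg.NearField.right_distrib (0 : B) 0 a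
    rw [add_zero] at h
    exact left_eq_add.1 h
  have hdiag : ∀ a : B, a ≠ 0 → ∃ g ∈ K, ∀ x : B, g • (x : α) = ((x * a : B) : α) := by
    intro a ha
    obtain ⟨g, g0, gx⟩ := haff a 0 ha
    refine ⟨g, ⟨g0, ?_⟩, fun x => by rw [gx, add_zero]⟩
    show g • ((0 : B) : α) = _
    rw [gx, add_zero, hz]
  have hcomm : ∀ a b : B, a * b = b * a := by
    intro a b
    by_cases ha : a = 0
    · rw [ha, hz, Cfsg.NearField.mul_zero]
    by_cases hb : b = 0
    · rw [hb, hz, Cfsg.NearField.mul_zero]
    obtain ⟨g, gK, gx⟩ := hdiag a ha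
    obtain ⟨h, hK', hx⟩ := hdiag b hb
    have e := congrArg (fun t : G => t • ((1 : B) : α)) (hKcomm h hK' g gK)
    simp only [mul_smul] at e
    rw [gx, hx, hx, gx, one_mul, one_mul] at e
    exact Subtype.ext e
  have hwx : ∀ a : B, a ≠ 0 → ∀ b : B, b * a = 1 → w • (a : α) = (b : α) := by
    intro a ha b hab
    obtain ⟨g, gK, gx⟩ := hdiag a ha
    have h1 : g • ((1 : B) : α) = (a : α) := by rw [gx, one_mul]
    have h2 : g • (b : α) = ((1 : B) : α) := by rw [gx, hab]
    have h3 : w • (a : α) = (w * g * w) • ((1 : B) : α) := by rw [mul_smul, w2, mul_smul, h1]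
    rw [h3, hinv g gK, inv_smul_eq_iff, h2]
  obtain ⟨instF, hmul, hadd, hzero, hone⟩ := exists_field_of_comm N hcomm
  refine @sl2_of_affine α _ _ G i0 instF hodd ?_ ?_ ?_
  · intro a b ha
    obtain ⟨g, g0, gx⟩ := haff a b (fun h => ha (h.trans hzero.symm))
    refine ⟨g, g0, fun x => ?_⟩
    show g • (x : α) = ((instF.add (instF.mul x a) b : B) : α)
    rw [hmul, hadd]
    exact gx x
  · intro g hg
    obtain ⟨c, d, hc, hcd⟩ := (hN _).mp ⟨⟨g, hg⟩, rfl⟩
    refine ⟨c, d, fun h => hc (h.trans hzero), fun x => ?_⟩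
    show g • (x : α) = ((instF.add (instF.mul x c) d : B) : α)
    rw [hmul, hadd]
    exact congrArg Subtype.val (hcd x)
  · refine ⟨w, ?_, ?_, fun x hx => ?_⟩
    · show w • i0 = ((instF.zero : B) : α)
      rw [hzero]; exact w0
    · show w • ((instF.zero : B) : α) = i0
      rw [hzero]; exact w1
    · refine hwx x (fun h => hx (h.trans hzero.symm)) _ ?_
      refine (hmul _ x).symm.trans ?_
      refine Eq.trans ?_ hone
      letI := instF
      exact inv_mul_cancel₀ hx

end Cfsg.Agent.H44
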